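import Cfsg.Agent.Lib.Helper36.Gen2.Defs
import Cfsg.Agent.Lib.Helper36.StbB

set_option autoImplicit false

/-!
# GEN2 (S2405), package [F4]: the Chevalley group of type `F₄` over a finite field is generated by
two elements.

Roots `0..47`, negation `r ↦ 47 - r`; the Coxeter element `w = w₁w₂w₃w₄` has four orbits of
length 12 on the roots: two of long roots (`4 ↦ 16 ↦ 22 ↦ 23 ↦ 42 ↦ 30 ↦ 43 ↦ 31 ↦ 25 ↦ 24 ↦ 5 ↦ 17`
and the orbit of `0`) and two of short roots (the orbits of `12` and of `3`).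
-/

namespace Cfsg.Agent.Lib.Helper52.Gen2

open Cfsg Cfsg.Lie Cfsg.Agent.Lib.Helper18 Cfsg.Agent.Lib.Helper17 Cfsg.Agent.Lib.Helper36

universe u

theorem f4_mem : chevF4 ∈ [chevG2, chevB2, chevD4, chevF4, chevE6, chevE7, chevE8] := by simp

section

variable {F : Type u} [Field F]

/-- the root elements of `F₄` -/
noncomputable abbrev xF (r : ℕ) (t : F) : GL chevF4.Idx F := xU chevF4 f4_mem r t

theorem xF_add (r : ℕ) (hr : r < 48) (t u : F) : xF r t * xF r u = xF r (t + u) :=
  xU_mul_xU chevF4 f4_mem r hr t u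

theorem xF_inv (r : ℕ) (t : F) : (xF r t)⁻¹ = xF r (-t) :=
  Cfsg.Agent.Lib.Helper17.xU_inv chevF4 f4_mem r t

theorem xF_zero (r : ℕ) : xF r (0 : F) = 1 :=
  Units.ext (by rw [coe_xU, Units.val_one]; exact Cfsg.Agent.S1024.x_zero chevF4 r)

theorem xF_pow (r : ℕ) (hr : r < 48) (t : F) (n : ℕ) : xF r t ^ n = xF r (n * t) := by
  induction n with
  | zero => rw [pow_zero, Nat.cast_zero, zero_mul, xF_zero]
  | succ n ih =>
    rw [pow_succ, ih, xF_add r hr]
    congr 1
    push_cast
    ring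

/-- commuting root groups: the commutator formula without terms -/
theorem xF_comm (r s : ℕ) (hr : r < 48) (hs : s < 48) (hsr : s ≠ r) (hsn : s ≠ chevF4.neg r)
    (hct : chevF4.commTerms r s = []) (t u : F) : xF s u * xF r t = xF r t * xF s u := by
  have hcf := cf_of_mem (F := F) chevF4 f4_mem r s hr hs hsr hsn t u
  have hw : chevF4.wordMat F (chevF4.commWord F r s t u) = 1 := by
    unfold ChevalleyDatum.commWord ChevalleyDatum.wordMat
    rw [hct]
    simp
  rw [hw, mul_one] at hcf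
  exact Units.ext (by simpa only [Units.val_mul, coe_xU] using hcf)

/-- the commutator formula with one term -/
theorem xF_cf1 (r s w : ℕ) (ε : ℤ) (hr : r < 48) (hs : s < 48) (hsr : s ≠ r)
    (hsn : s ≠ chevF4.neg r) (hct : chevF4.commTerms r s = [(w, ε, 1, 1)]) (t u : F) :
    xF s u * xF r t = xF r t * xF s u * xF w ((ε : F) * -t * u) := by
  have hcf := cf_of_mem (F := F) chevF4 f4_mem r s hr hs hsr hsn t u
  have hw : chevF4.wordMat F (chevF4.commWord F r s t u) = chevF4.x F w ((ε : F) * -t * u) := by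
    unfold ChevalleyDatum.commWord ChevalleyDatum.wordMat
    rw [hct]
    simp
  rw [hw] at hcf
  exact Units.ext (by simpa only [Units.val_mul, coe_xU] using hcf)

/-- the commutator formula with the two terms `(1,1)` and `(1,2)` -/
theorem xF_cf2 (r s w1 w2 : ℕ) (ε1 ε2 : ℤ) (hr : r < 48) (hs : s < 48) (hsr : s ≠ r)
    (hsn : s ≠ chevF4.neg r) (hct : chevF4.commTerms r s = [(w1, ε1, 1, 1), (w2, ε2, 1, 2)])
    (t u : F) :
    xF s u * xF r t =
      xF r t * xF s u * (xF w1 ((ε1 : F) * -t * u) * xF w2 ((ε2 : F) * -t * u ^ 2)) := by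
  have hcf := cf_of_mem (F := F) chevF4 f4_mem r s hr hs hsr hsn t u
  have hw : chevF4.wordMat F (chevF4.commWord F r s t u) =
      chevF4.x F w1 ((ε1 : F) * -t * u) * chevF4.x F w2 ((ε2 : F) * -t * u ^ 2) := by
    unfold ChevalleyDatum.commWord ChevalleyDatum.wordMat
    rw [hct]
    simp
  rw [hw] at hcf
  exact Units.ext (by simpa only [Units.val_mul, coe_xU] using hcf)

/-- the torus element `h_{p₄}(ζ)` -/
noncomputable def hT (ζ : F) : GL chevF4.Idx F :=
  wordU chevF4 f4_mem (chevF4.hWord (chevF4.simple 3) ζ)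

theorem coe_hT (ζ : F) :
    ((hT ζ : GL chevF4.Idx F) : Matrix chevF4.Idx chevF4.Idx F) =
      chevF4.hMat F (chevF4.simple 3) ζ := by
  rw [hT, coe_wordU]
  rfl

theorem hT_mem (ζ : F) : hT ζ ∈ chevF4.group F := wordU_mem_group chevF4 f4_mem _

theorem hT_conj (ζ : F) (hζ : ζ ≠ 0) (s : ℕ) (hs : s < 48) (t : F) :
    hT ζ * xF s t = xF s (ζ ^ (chevF4.cartan 3 s) * t) * hT ζ :=
  Units.ext (by
    simp only [Units.val_mul, coe_xU, coe_hT]
    exact Cfsg.Agent.S1032.result chevF4 f4_mem 3 s (by decide) hs ζ hζ t)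

theorem hT_pow (ζ : F) (hζ : ζ ≠ 0) (N : ℕ) (hN : ζ ^ N = 1) : hT ζ ^ N = 1 := by
  apply Units.ext
  rw [Units.val_pow_eq_pow_val, coe_hT,
    Cfsg.Agent.S1033.result chevF4 f4_mem 3 (by decide) ζ hζ, Matrix.diagonal_pow,
    Units.val_one, ← Matrix.diagonal_one]
  congr 1
  funext i
  rcases i with i | s
  · simp
  · simp only [Pi.pow_apply, Sum.elim_inr]
    rw [← zpow_natCast, ← zpow_mul, mul_comm, zpow_mul, zpow_natCast, hN, one_zpow]

/-- the Coxeter word -/
def cW : List (Fin chevF4.rank) := [⟨0, by decide⟩, ⟨1, by decide⟩, ⟨2, by decide⟩, ⟨3, by decide⟩]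

/-- the Coxeter element -/
noncomputable abbrev bC : GL chevF4.Idx F := nW (F := F) chevF4 f4_mem cW

/-- the root group `X_r` lies in `K` -/
def Full (K : Subgroup (GL chevF4.Idx F)) (r : ℕ) : Prop := ∀ t : F, xF r t ∈ K

/-- conjugation by the Coxeter element moves full root groups -/
theorem bC_conj (K : Subgroup (GL chevF4.Idx F)) (hb : (bC : GL chevF4.Idx F) ∈ K) (r : ℕ)
    (hr : r < 48) (h : Full K r) : wordF chevF4 cW r < 48 ∧ Full K (wordF chevF4 cW r) := by
  obtain ⟨ε, hε⟩ := word_smap (F := F) chevF4 f4_mem cW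
  refine ⟨hε.lt r hr, fun t => ?_⟩
  have e1 := hε.conjU f4_mem r hr (ε r * t)
  have hsq : ε r * (ε r * t) = t := by
    rcases hε.sign r hr with h | h <;> rw [h] <;> simp
  rw [hsq] at e1
  have e2 : xF (wordF chevF4 cW r) t = bC * xF r (ε r * t) * (bC)⁻¹ := by
    show _ = ((cW.map (nU (F := F) chevF4 f4_mem)).prod) * xF r (ε r * t) *
      ((cW.map (nU (F := F) chevF4 f4_mem)).prod)⁻¹
    rw [e1]
    group
  rw [e2]
  exact K.mul_mem (K.mul_mem hb (h _)) (K.inv_mem hb)

/-- conjugation by the Coxeter element moves `x_r(1)` to `x_{w r}(±1)` -/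
theorem bC_conj_one (K : Subgroup (GL chevF4.Idx F)) (hb : (bC : GL chevF4.Idx F) ∈ K) (r : ℕ)
    (hr : r < 48) (h : xF r (1 : F) ∈ K) : xF (wordF chevF4 cW r) (1 : F) ∈ K := by
  obtain ⟨ε, hε⟩ := word_smap (F := F) chevF4 f4_mem cW
  have e1 := hε.conjU f4_mem r hr 1
  have e2 : xF (wordF chevF4 cW r) (ε r * 1) = bC * xF r 1 * (bC)⁻¹ := by
    show _ = ((cW.map (nU (F := F) chevF4 f4_mem)).prod) * xF r 1 *
      ((cW.map (nU (F := F) chevF4 f4_mem)).prod)⁻¹
    rw [e1]
    group
  have e3 : xF (wordF chevF4 cW r) (ε r * 1) ∈ K := by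
    rw [e2]
    exact K.mul_mem (K.mul_mem hb h) (K.inv_mem hb)
  rcases hε.sign r hr with h1 | h1
  · rw [h1, one_mul] at e3
    exact e3
  · rw [h1, mul_one] at e3
    have := K.inv_mem e3
    rwa [xF_inv, neg_neg] at this

/-- full root groups along a Coxeter orbit -/
theorem full_iter (K : Subgroup (GL chevF4.Idx F)) (hb : (bC : GL chevF4.Idx F) ∈ K) (r : ℕ)
    (hr : r < 48) (h : Full K r) (k : ℕ) :
    (wordF chevF4 cW)^[k] r < 48 ∧ Full K ((wordF chevF4 cW)^[k] r) := by
  induction k with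
  | zero => exact ⟨hr, h⟩
  | succ k ih =>
    rw [Function.iterate_succ_apply']
    exact bC_conj K hb _ ih.1 ih.2

theorem full_orbit (K : Subgroup (GL chevF4.Idx F)) (hb : (bC : GL chevF4.Idx F) ∈ K) (r0 : ℕ)
    (hr0 : r0 < 48) (h : Full K r0) (k r : ℕ) (hr : (wordF chevF4 cW)^[k] r0 = r) : Full K r := by
  rw [← hr]
  exact (full_iter K hb r0 hr0 h k).2

/-- a single-term commutator with constant `±1` of two full root groups is full -/
theorem full_cf1 (K : Subgroup (GL chevF4.Idx F)) (r s w : ℕ) (ε : ℤ) (hr : r < 48) (hs : s < 48)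
    (hsr : s ≠ r) (hsn : s ≠ chevF4.neg r) (hct : chevF4.commTerms r s = [(w, ε, 1, 1)])
    (hε : ε = 1 ∨ ε = -1) (h1 : Full K r) (h2 : Full K s) : Full K w := by
  intro c
  have hcf := xF_cf1 (F := F) r s w ε hr hs hsr hsn hct (-(ε : F) * c) 1
  have e : (ε : F) * -(-(ε : F) * c) * 1 = c := by
    rcases hε with h | h <;> rw [h] <;> push_cast <;> ring
  rw [e] at hcf
  have h3 : xF w c = (xF r (-(ε : F) * c) * xF s 1)⁻¹ * (xF s 1 * xF r (-(ε : F) * c)) := by
    rw [hcf]
    group
  rw [h3]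
  exact K.mul_mem (K.inv_mem (K.mul_mem (h1 _) (h2 _))) (K.mul_mem (h2 _) (h1 _))

set_option maxRecDepth 100000 in
/-- from one long and one short root group to all root groups -/
theorem full_all (K : Subgroup (GL chevF4.Idx F)) (hb : (bC : GL chevF4.Idx F) ∈ K)
    (h4 : Full K 4) (h12 : Full K 12) (r : ℕ) (hr : r < 48) : Full K r := by
  have h16 : Full K 16 := full_orbit K hb 4 (by decide) h4 1 16 (by decide)
  have h9 : Full K 9 := full_orbit K hb 12 (by decide) h12 1 9 (by decide)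
  have h0 : Full K 0 :=
    full_cf1 K 4 16 0 (-1) (by decide) (by decide) (by decide) (by decide) (by decide)
      (Or.inr rfl) h4 h16
  have h3 : Full K 3 :=
    full_cf1 K 9 12 3 (-1) (by decide) (by decide) (by decide) (by decide) (by decide)
      (Or.inr rfl) h9 h12
  intro t
  interval_cases r
  · exact full_orbit K hb 0 (by decide) h0 0 0 (by decide) t
  · exact full_orbit K hb 0 (by decide) h0 11 1 (by decide) t
  · exact full_orbit K hb 0 (by decide) h0 10 2 (by decide) t
  · exact full_orbit K hb 3 (by decide) h3 0 3 (by decide) t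
  · exact full_orbit K hb 4 (by decide) h4 0 4 (by decide) t
  · exact full_orbit K hb 4 (by decide) h4 10 5 (by decide) t
  · exact full_orbit K hb 0 (by decide) h0 9 6 (by decide) t
  · exact full_orbit K hb 3 (by decide) h3 1 7 (by decide) t
  · exact full_orbit K hb 3 (by decide) h3 2 8 (by decide) t
  · exact full_orbit K hb 12 (by decide) h12 1 9 (by decide) t
  · exact full_orbit K hb 3 (by decide) h3 11 10 (by decide) t
  · exact full_orbit K hb 12 (by decide) h12 3 11 (by decide) t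
  · exact full_orbit K hb 12 (by decide) h12 0 12 (by decide) t
  · exact full_orbit K hb 3 (by decide) h3 10 13 (by decide) t
  · exact full_orbit K hb 12 (by decide) h12 10 14 (by decide) t
  · exact full_orbit K hb 0 (by decide) h0 1 15 (by decide) t
  · exact full_orbit K hb 4 (by decide) h4 1 16 (by decide) t
  · exact full_orbit K hb 4 (by decide) h4 11 17 (by decide) t
  · exact full_orbit K hb 3 (by decide) h3 3 18 (by decide) t
  · exact full_orbit K hb 12 (by decide) h12 2 19 (by decide) t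
  · exact full_orbit K hb 12 (by decide) h12 11 20 (by decide) t
  · exact full_orbit K hb 0 (by decide) h0 2 21 (by decide) t
  · exact full_orbit K hb 4 (by decide) h4 2 22 (by decide) t
  · exact full_orbit K hb 4 (by decide) h4 3 23 (by decide) t
  · exact full_orbit K hb 4 (by decide) h4 9 24 (by decide) t
  · exact full_orbit K hb 4 (by decide) h4 8 25 (by decide) t
  · exact full_orbit K hb 0 (by decide) h0 8 26 (by decide) t
  · exact full_orbit K hb 12 (by decide) h12 5 27 (by decide) t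
  · exact full_orbit K hb 12 (by decide) h12 8 28 (by decide) t
  · exact full_orbit K hb 3 (by decide) h3 9 29 (by decide) t
  · exact full_orbit K hb 4 (by decide) h4 5 30 (by decide) t
  · exact full_orbit K hb 4 (by decide) h4 7 31 (by decide) t
  · exact full_orbit K hb 0 (by decide) h0 7 32 (by decide) t
  · exact full_orbit K hb 12 (by decide) h12 4 33 (by decide) t
  · exact full_orbit K hb 3 (by decide) h3 4 34 (by decide) t
  · exact full_orbit K hb 12 (by decide) h12 6 35 (by decide) t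
  · exact full_orbit K hb 12 (by decide) h12 9 36 (by decide) t
  · exact full_orbit K hb 3 (by decide) h3 5 37 (by decide) t
  · exact full_orbit K hb 12 (by decide) h12 7 38 (by decide) t
  · exact full_orbit K hb 3 (by decide) h3 8 39 (by decide) t
  · exact full_orbit K hb 3 (by decide) h3 7 40 (by decide) t
  · exact full_orbit K hb 0 (by decide) h0 3 41 (by decide) t
  · exact full_orbit K hb 4 (by decide) h4 4 42 (by decide) t
  · exact full_orbit K hb 4 (by decide) h4 6 43 (by decide) t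
  · exact full_orbit K hb 3 (by decide) h3 6 44 (by decide) t
  · exact full_orbit K hb 0 (by decide) h0 4 45 (by decide) t
  · exact full_orbit K hb 0 (by decide) h0 5 46 (by decide) t
  · exact full_orbit K hb 0 (by decide) h0 6 47 (by decide) t

/-- every root element lies in `K`: the group is contained in `K` -/
theorem group_le_of_full (K : Subgroup (GL chevF4.Idx F)) (h : ∀ r < 48, Full K r) :
    chevF4.group F ≤ K := by
  unfold ChevalleyDatum.group
  rw [Subgroup.closure_le]
  rintro g ⟨r, t, hg⟩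
  have hgx : g = xF r.1 t := Units.ext (by
    rw [hg, coe_xU]; simp [ChevalleyDatum.x, r.2])
  rw [hgx]
  exact h r.1 r.2 t

set_option maxRecDepth 100000 in
/-- more than two elements: `a = h x_43(1) x_36(1)` and the Coxeter element generate -/
theorem gen_big [Finite F] (hx : ∃ x : F, x ≠ 0 ∧ x ≠ 1) :
    ∃ a b : GL chevF4.Idx F, a ∈ chevF4.group F ∧ b ∈ chevF4.group F ∧
      chevF4.group F ≤ Subgroup.closure ({a, b} : Set (GL chevF4.Idx F)) := by
  obtain ⟨x0, hx0, hx1⟩ := hx
  classical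
  have hfin : Fintype F := Fintype.ofFinite F
  -- a generator of the multiplicative group
  obtain ⟨ζu, hζu⟩ := IsCyclic.exists_generator (α := Fˣ)
  obtain ⟨ζ, hζdef⟩ : ∃ ζ : F, ζ = (ζu : F) := ⟨_, rfl⟩
  have hζ0 : ζ ≠ 0 := by rw [hζdef]; exact ζu.ne_zero
  have hpow : ∀ s : F, s ≠ 0 → ∃ k : ℕ, ζ ^ k = s := by
    intro s hs
    have h2 := hζu (Units.mk0 s hs)
    rw [← mem_powers_iff_mem_zpowers] at h2
    obtain ⟨k, hk⟩ := h2
    refine ⟨k, ?_⟩
    have h3 := congrArg Units.val hk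
    rw [hζdef]
    simpa using h3
  have hζ1 : ζ ≠ 1 := by
    intro h1
    obtain ⟨k, hk⟩ := hpow x0 hx0
    rw [h1, one_pow] at hk
    exact hx1 hk.symm
  obtain ⟨N, hNdef⟩ : ∃ N : ℕ, N = Fintype.card F - 1 := ⟨_, rfl⟩
  have hζN : ζ ^ N = 1 := by
    rw [hNdef]
    exact FiniteField.pow_card_sub_one_eq_one ζ hζ0
  have hNF : (N : F) = -1 := by
    rw [hNdef, Nat.cast_sub Fintype.card_pos, FiniteField.cast_card_eq_zero]
    simp
  obtain ⟨h, hhdef⟩ : ∃ h : GL chevF4.Idx F, h = hT ζ := ⟨_, rfl⟩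
  obtain ⟨b, hbdef⟩ : ∃ b : GL chevF4.Idx F, b = bC := ⟨_, rfl⟩
  obtain ⟨c', hc'def⟩ : ∃ c' : GL chevF4.Idx F, c' = h * xF 36 1 := ⟨_, rfl⟩
  obtain ⟨a, hadef⟩ : ∃ a : GL chevF4.Idx F, a = h * xF 43 1 * xF 36 1 := ⟨_, rfl⟩
  have hh43 : ∀ t : F, h * xF 43 t = xF 43 t * h := by
    intro t
    have := hT_conj ζ hζ0 43 (by decide) t
    rwa [show chevF4.cartan 3 43 = 0 from by decide, zpow_zero, one_mul, ← hhdef] at this
  have hh4 : ∀ t : F, h * xF 4 t = xF 4 t * h := by
    intro t
    have := hT_conj ζ hζ0 4 (by decide) t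
    rwa [show chevF4.cartan 3 4 = 0 from by decide, zpow_zero, one_mul, ← hhdef] at this
  have hh36 : ∀ t : F, h * xF 36 t = xF 36 (ζ * t) * h := by
    intro t
    have := hT_conj ζ hζ0 36 (by decide) t
    rwa [show chevF4.cartan 3 36 = 1 from by decide, zpow_one, ← hhdef] at this
  have hh31 : ∀ t : F, h * xF 31 t = xF 31 (ζ * t) * h := by
    intro t
    have := hT_conj ζ hζ0 31 (by decide) t
    rwa [show chevF4.cartan 3 31 = 1 from by decide, zpow_one, ← hhdef] at this
  have h43_36 : ∀ t u : F, xF 43 u * xF 36 t = xF 36 t * xF 43 u :=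
    xF_comm 36 43 (by decide) (by decide) (by decide) (by decide) (by decide)
  have h36_31 : ∀ t u : F, xF 36 u * xF 31 t = xF 31 t * xF 36 u :=
    xF_comm 31 36 (by decide) (by decide) (by decide) (by decide) (by decide)
  refine ⟨a, b, ?_, ?_, ?_⟩
  · rw [hadef, hhdef]
    exact mul_mem (mul_mem (hT_mem ζ) (xU_mem_group _ _ _ _)) (xU_mem_group _ _ _ _)
  · rw [hbdef]
    exact nW_mem_group chevF4 f4_mem _
  obtain ⟨K, hKdef⟩ : ∃ K : Subgroup (GL chevF4.Idx F),
      K = Subgroup.closure ({a, b} : Set (GL chevF4.Idx F)) := ⟨_, rfl⟩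
  rw [← hKdef]
  have haK : a ∈ K := by rw [hKdef]; exact Subgroup.subset_closure (by simp)
  have hbK : (bC : GL chevF4.Idx F) ∈ K := by
    rw [hKdef, ← hbdef]; exact Subgroup.subset_closure (by simp)
  -- step 1: `x_43(1)` and `c'` lie in `K`
  have ha_eq : a = xF 43 1 * c' := by rw [hadef, hc'def, hh43, mul_assoc]
  have hcomm : Commute (xF 43 (1 : F)) c' := by
    show xF 43 1 * c' = c' * xF 43 1
    rw [hc'def, ← mul_assoc, ← hh43, mul_assoc, h43_36, mul_assoc]
  have hc'N : c' ^ N = 1 := by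
    have h1z : (1 : F) - ζ ≠ 0 := sub_ne_zero.mpr (Ne.symm hζ1)
    have hg : c' = xF 36 (ζ / (1 - ζ)) * h * (xF 36 (ζ / (1 - ζ)))⁻¹ := by
      rw [xF_inv, mul_assoc, hh36, ← mul_assoc, xF_add 36 (by decide), hc'def, hh36]
      congr 2
      field_simp
      ring
    rw [hg, conj_pow, hhdef, hT_pow ζ hζ0 N hζN, mul_one, mul_inv_cancel]
  have haN : a ^ N = xF 43 (-1) := by
    rw [ha_eq, hcomm.mul_pow, hc'N, mul_one, xF_pow 43 (by decide), hNF, mul_one]
  have hX43one : xF 43 (1 : F) ∈ K := by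
    have h1 := K.pow_mem haK N
    rw [haN] at h1
    have h2 := K.inv_mem h1
    rwa [xF_inv, neg_neg] at h2
  have hc'K : c' ∈ K := by
    have h1 : c' = (xF 43 1)⁻¹ * a := by rw [ha_eq]; group
    rw [h1]
    exact K.mul_mem (K.inv_mem hX43one) haK
  -- step 2: the long root group `X_31`
  have hX31one : xF 31 (1 : F) ∈ K := by
    have := bC_conj_one K hbK 43 (by decide) hX43one
    rwa [show wordF chevF4 cW 43 = 31 from by decide] at this
  have hX31mul : ∀ t : F, xF 31 t ∈ K → xF 31 (ζ * t) ∈ K := by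
    intro t ht
    have h1 : xF 31 (ζ * t) = c' * xF 31 t * c'⁻¹ := by
      rw [hc'def, mul_assoc h, h36_31, ← mul_assoc h, hh31]
      group
    rw [h1]
    exact K.mul_mem (K.mul_mem hc'K ht) (K.inv_mem hc'K)
  have hX31pow : ∀ k : ℕ, xF 31 (ζ ^ k) ∈ K := by
    intro k
    induction k with
    | zero => simpa using hX31one
    | succ k ih =>
      have := hX31mul _ ih
      rwa [← pow_succ'] at this
  have hX31 : Full K 31 := by
    intro t
    by_cases ht : t = 0
    · rw [ht, xF_zero]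
      exact K.one_mem
    · obtain ⟨k, rfl⟩ := hpow t ht
      exact hX31pow k
  have hX4 : Full K 4 := full_orbit K hbK 31 (by decide) hX31 5 4 (by decide)
  have hX24 : Full K 24 := full_orbit K hbK 31 (by decide) hX31 2 24 (by decide)
  -- step 3: the short root group `X_12`
  have hZ : ∀ s : F, (xF 36 (1 : F))⁻¹ * xF 4 s * xF 36 1 ∈ K := by
    intro s
    have h1 : (xF 36 (1 : F))⁻¹ * xF 4 s * xF 36 1 = c'⁻¹ * xF 4 s * c' := by
      have h2 : xF 4 s = h⁻¹ * xF 4 s * h := by
        rw [mul_assoc, ← hh4]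
        group
      rw [hc'def]
      conv_lhs => rw [h2]
      group
    rw [h1]
    exact K.mul_mem (K.mul_mem (K.inv_mem hc'K) (hX4 _)) hc'K
  have hX12 : Full K 12 := by
    intro t
    have hcf := xF_cf2 (F := F) 4 36 12 24 1 (-1) (by decide) (by decide) (by decide) (by decide)
      (by decide) (-t) 1
    have e1 : ((1 : ℤ) : F) * -(-t) * 1 = t := by push_cast; ring
    have e2 : ((-1 : ℤ) : F) * -(-t) * 1 ^ 2 = -t := by push_cast; ring
    rw [e1, e2] at hcf
    have h1 : xF 12 t = (xF 36 (1 : F))⁻¹ * xF 4 t * xF 36 1 * xF 4 (-t) * (xF 24 (-t))⁻¹ := by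
      have h2 : xF 4 t = (xF 4 (-t))⁻¹ := by rw [xF_inv, neg_neg]
      rw [h2, mul_assoc ((xF 36 (1 : F))⁻¹ * (xF 4 (-t))⁻¹), hcf]
      group
    rw [h1]
    exact K.mul_mem (K.mul_mem (hZ t) (hX4 _)) (K.inv_mem (hX24 _))
  exact group_le_of_full K (full_all K hbK hX4 hX12)

set_option maxRecDepth 100000 in
/-- two elements: `a = x_4(1) x_42(1) x_12(1)` and the Coxeter element generate -/
theorem gen_two (h01 : ∀ x : F, x = 0 ∨ x = 1) :
    ∃ a b : GL chevF4.Idx F, a ∈ chevF4.group F ∧ b ∈ chevF4.group F ∧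
      chevF4.group F ≤ Subgroup.closure ({a, b} : Set (GL chevF4.Idx F)) := by
  have h2 : (1 : F) + 1 = 0 := by
    rcases h01 (1 + 1) with h | h
    · exact h
    · exact absurd (add_eq_right.mp h) one_ne_zero
  have hneg : (-1 : F) = 1 := by
    rw [neg_eq_iff_add_eq_zero]
    exact h2
  obtain ⟨A, hAdef⟩ : ∃ A : GL chevF4.Idx F, A = xF 4 1 := ⟨_, rfl⟩
  obtain ⟨B, hBdef⟩ : ∃ B : GL chevF4.Idx F, B = xF 42 1 := ⟨_, rfl⟩
  obtain ⟨C, hCdef⟩ : ∃ C : GL chevF4.Idx F, C = xF 12 1 := ⟨_, rfl⟩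
  obtain ⟨V, hVdef⟩ : ∃ V : GL chevF4.Idx F, V = xF 22 1 := ⟨_, rfl⟩
  obtain ⟨b, hbdef⟩ : ∃ b : GL chevF4.Idx F, b = bC := ⟨_, rfl⟩
  have hAA : A * A = 1 := by rw [hAdef, xF_add 4 (by decide), h2, xF_zero]
  have hBB : B * B = 1 := by rw [hBdef, xF_add 42 (by decide), h2, xF_zero]
  have hCC : C * C = 1 := by rw [hCdef, xF_add 12 (by decide), h2, xF_zero]
  have hCA : C * A = A * C := by
    rw [hCdef, hAdef]
    exact xF_comm 4 12 (by decide) (by decide) (by decide) (by decide) (by decide) 1 1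
  have hCB : C * B = B * C := by
    rw [hCdef, hBdef]
    exact xF_comm 42 12 (by decide) (by decide) (by decide) (by decide) (by decide) 1 1
  have hVB : V * B = B * V := by
    rw [hVdef, hBdef]
    exact xF_comm 42 22 (by decide) (by decide) (by decide) (by decide) (by decide) 1 1
  have hBA : B * A = A * B * V := by
    have := xF_cf1 (F := F) 4 42 22 (-1) (by decide) (by decide) (by decide) (by decide)
      (by decide) 1 1
    have e : ((-1 : ℤ) : F) * -1 * 1 = 1 := by push_cast; ring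
    rw [e] at this
    rw [hBdef, hAdef, hVdef]
    exact this
  refine ⟨A * B * C, b, ?_, ?_, ?_⟩
  · rw [hAdef, hBdef, hCdef]
    exact mul_mem (mul_mem (xU_mem_group _ _ _ _) (xU_mem_group _ _ _ _)) (xU_mem_group _ _ _ _)
  · rw [hbdef]
    exact nW_mem_group chevF4 f4_mem _
  obtain ⟨K, hKdef⟩ : ∃ K : Subgroup (GL chevF4.Idx F),
      K = Subgroup.closure ({A * B * C, b} : Set (GL chevF4.Idx F)) := ⟨_, rfl⟩
  rw [← hKdef]
  have haK : A * B * C ∈ K := by rw [hKdef]; exact Subgroup.subset_closure (by simp)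
  have hbK : (bC : GL chevF4.Idx F) ∈ K := by
    rw [hKdef, ← hbdef]; exact Subgroup.subset_closure (by simp)
  have hfull : ∀ r : ℕ, xF r (1 : F) ∈ K → Full K r := by
    intro r hr t
    rcases h01 t with h | h
    · rw [h, xF_zero]; exact K.one_mem
    · rw [h]; exact hr
  -- the square of `a` is `x_22(1)`
  have hsq : (A * B * C) * (A * B * C) = V := by
    calc (A * B * C) * (A * B * C) = A * B * (C * A) * B * C := by group
      _ = A * B * A * (C * B) * C := by rw [hCA]; group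
      _ = A * (B * A) * B * (C * C) := by rw [hCB]; group
      _ = A * A * B * (V * B) := by rw [hBA, hCC]; group
      _ = V := by rw [hVB, hAA, one_mul, ← mul_assoc, hBB, one_mul]
  have hV : Full K 22 := by
    apply hfull
    rw [← hVdef, ← hsq]
    exact K.mul_mem haK haK
  have hX4 : Full K 4 := full_orbit K hbK 22 (by decide) hV 10 4 (by decide)
  have hX42 : Full K 42 := full_orbit K hbK 22 (by decide) hV 2 42 (by decide)
  have hX12 : Full K 12 := by
    apply hfull
    have h1 : xF 12 (1 : F) = (xF 4 1 * xF 42 1)⁻¹ * (A * B * C) := by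
      rw [hAdef, hBdef, hCdef]
      group
    rw [h1]
    exact K.mul_mem (K.inv_mem (K.mul_mem (hX4 _) (hX42 _))) haK
  exact group_le_of_full K (full_all K hbK hX4 hX12)

end

/-- [F4]: the Chevalley group of type `F₄` over a finite field is generated by two elements. -/
theorem pkgF4 : Cfsg.Agent.Lib.Helper36.Gen2.PkgF4.{u} := by
  intro F _ _
  by_cases hx : ∃ x : F, x ≠ 0 ∧ x ≠ 1
  · exact gen_big hx
  · refine gen_two fun x => ?_
    by_contra hcon
    push Not at hcon
    exact hx ⟨x, hcon.1, hcon.2⟩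

example : Cfsg.Agent.Lib.Helper36.Gen2.PkgF4.{0} := pkgF4
example : Cfsg.Agent.Lib.Helper36.Gen2.PkgF4.{3} := pkgF4

end Cfsg.Agent.Lib.Helper52.Gen2
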